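import Cfsg.Agent.H415.C3.Kit
import Cfsg.Agent.S0276

/-!
# S1920, classical groups: LEMMA X and LEMMA Q (helper99)

* `Kit.lemX` : a homomorphism `f : SL₂(D) → G` into `A` whose image contains `E`: `|D| = 9`;
* `lemQ` : elements of `SL₂(K)`, `K` finite, of the same trace `t`, `t² ≠ 4`, are conjugate in `SL₂(K)`;
* `lemQstar` : the same for an algebra with an anti-involution `a ↦ a*`, `a + a*, a a* ∈ K`.
-/

set_option autoImplicit false

open Subgroup Matrix

namespace Cfsg.Agent.H99.C3

open Cfsg.Agent.H415.C3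

section gen

variable {F : Type*} [Field F]

/-- The upper unitriangular element of `SL₂(F)`. -/
def up (t : F) : SpecialLinearGroup (Fin 2) F := ⟨!![1, t; 0, 1], by simp⟩

/-- The lower unitriangular element of `SL₂(F)`. -/
def lo (t : F) : SpecialLinearGroup (Fin 2) F := ⟨!![1, 0; t, 1], by simp⟩

/-- the diagonal element -/
def dg (t : F) (ht : t ≠ 0) : SpecialLinearGroup (Fin 2) F := ⟨!![t, 0; 0, t⁻¹], by simp [ht]⟩

/-- the Weyl element -/
def ww : SpecialLinearGroup (Fin 2) F := ⟨!![0, 1; -1, 0], by simp⟩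

theorem ext2 {A B : SpecialLinearGroup (Fin 2) F} (h00 : A.1 0 0 = B.1 0 0) (h01 : A.1 0 1 = B.1 0 1)
    (h10 : A.1 1 0 = B.1 1 0) (h11 : A.1 1 1 = B.1 1 1) : A = B := by
  apply Subtype.ext
  apply Matrix.ext
  intro i j
  fin_cases i <;> fin_cases j <;> assumption

theorem mul_val (A B : SpecialLinearGroup (Fin 2) F) (i j : Fin 2) :
    (A * B).1 i j = A.1 i 0 * B.1 0 j + A.1 i 1 * B.1 1 j := by
  change (A.1 * B.1) i j = _
  rw [Matrix.mul_apply, Fin.sum_univ_two]

theorem one_val (i j : Fin 2) : (1 : SpecialLinearGroup (Fin 2) F).1 i j = if i = j then 1 else 0 := by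
  change (1 : Matrix (Fin 2) (Fin 2) F) i j = _
  rw [Matrix.one_apply]

theorem up_add (s t : F) : up s * up t = up (s + t) := by
  apply ext2 <;> rw [mul_val] <;> simp [up, add_comm]

theorem up_zero : (up 0 : SpecialLinearGroup (Fin 2) F) = 1 := by
  apply ext2 <;> rw [one_val] <;> simp [up]

theorem up_neg (t : F) : (up t)⁻¹ = up (-t) := by
  rw [inv_eq_iff_mul_eq_one, up_add, add_neg_cancel, up_zero]

theorem dg_up (s : F) (hs : s ≠ 0) (t : F) : dg s hs * up t * (dg s hs)⁻¹ = up (t * s ^ 2) := by
  rw [mul_inv_eq_iff_eq_mul]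
  apply ext2 <;> rw [mul_val, mul_val] <;> simp [up, dg]
  field_simp

theorem ww_up (t : F) : ww * up t * (ww)⁻¹ = lo (-t) := by
  rw [mul_inv_eq_iff_eq_mul]
  apply ext2 <;> rw [mul_val, mul_val] <;> simp [up, lo, ww]

/-- `SL₂(F)` is generated by the unitriangular elements. -/
theorem mem_closure (g : SpecialLinearGroup (Fin 2) F) :
    g ∈ Subgroup.closure (Set.range (up (F := F)) ∪ Set.range (lo (F := F))) := by
  have hu : ∀ t : F, up t ∈ Subgroup.closure (Set.range (up (F := F)) ∪ Set.range (lo (F := F))) :=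
    fun t => Subgroup.subset_closure (Or.inl ⟨t, rfl⟩)
  have hl : ∀ t : F, lo t ∈ Subgroup.closure (Set.range (up (F := F)) ∪ Set.range (lo (F := F))) :=
    fun t => Subgroup.subset_closure (Or.inr ⟨t, rfl⟩)
  have key : ∀ g : SpecialLinearGroup (Fin 2) F, g.1 1 0 ≠ 0 →
      g ∈ Subgroup.closure (Set.range (up (F := F)) ∪ Set.range (lo (F := F))) := by
    intro g hc
    have hdet : g.1 0 0 * g.1 1 1 - g.1 0 1 * g.1 1 0 = 1 := by
      rw [← Matrix.det_fin_two]; exact g.2
    have : g = up ((g.1 0 0 - 1) / g.1 1 0) * lo (g.1 1 0) * up ((g.1 1 1 - 1) / g.1 1 0) := by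
      apply ext2 <;> rw [mul_val, mul_val, mul_val] <;> simp [up, lo, hc]
      · field_simp
        linear_combination -hdet
      · field_simp
        ring
    rw [this]
    exact mul_mem (mul_mem (hu _) (hl _)) (hu _)
  by_cases hc : g.1 1 0 = 0
  · have h1 : (g * lo 1).1 1 0 ≠ 0 := by
      rw [mul_val]
      have hdet : g.1 0 0 * g.1 1 1 - g.1 0 1 * g.1 1 0 = 1 := by
        rw [← Matrix.det_fin_two]; exact g.2
      rw [hc, mul_zero, sub_zero] at hdet
      intro h2
      simp [lo, hc] at h2
      rw [h2, mul_zero] at hdet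
      exact zero_ne_one hdet
    have h2 := mul_mem (key _ h1) (inv_mem (hl 1))
    rwa [mul_inv_cancel_right] at h2
  · exact key g hc

/-- **a normal subgroup of `SL₂(F)`, `char F ≠ 2`, containing a transvection is everything.** -/
theorem normal_top (h2 : (2 : F) ≠ 0) (N : Subgroup (SpecialLinearGroup (Fin 2) F)) (hN : N.Normal) {a : F} (ha : a ≠ 0)
    (haN : up a ∈ N) (g : SpecialLinearGroup (Fin 2) F) : g ∈ N := by
  have h1 : ∀ s : F, up (a * s ^ 2) ∈ N := by
    intro s
    by_cases hs : s = 0
    · rw [hs, zero_pow (by norm_num), mul_zero, up_zero]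
      exact one_mem _
    · rw [← dg_up s hs a]
      exact hN.conj_mem _ haN _
  have h3 : ∀ t : F, up t ∈ N := by
    intro t
    have h4 : t = a * ((t / a + 1) / 2) ^ 2 + -(a * ((t / a - 1) / 2) ^ 2) := by
      field_simp
      ring
    rw [h4, ← up_add, ← up_neg]
    exact mul_mem (h1 _) (inv_mem (h1 _))
  have h5 : ∀ t : F, lo t ∈ N := by
    intro t
    have h6 := hN.conj_mem _ (h3 (-t)) ww
    rwa [ww_up, neg_neg] at h6
  refine (Subgroup.closure_le N).2 ?_ (mem_closure g)
  rintro _ (⟨t, rfl⟩ | ⟨t, rfl⟩)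
  · exact h3 t
  · exact h5 t

end gen

variable {G : Type*} [Group G] {N0 A E : Subgroup G} {z s x r : G} {ψ : ↥A →* Equiv.Perm (Fin 6)}

/-- **LEMMA X.** -/
theorem lemX (K : Kit N0 A E z s x r ψ) {D : Type*} [Field D] [Finite D] (h2 : (2 : D) ≠ 0)
    (f : SpecialLinearGroup (Fin 2) D →* G) (hf : ∀ g, f g ∈ A) (hE : E ≤ f.range) : Nat.card D = 9 := by
  have : Fintype D := Fintype.ofFinite D
  let φ : SpecialLinearGroup (Fin 2) D →* Equiv.Perm (Fin 6) := ψ.comp (f.codRestrict A hf)
  have hφ : ∀ π : Equiv.Perm (Fin 6), Equiv.Perm.sign π = 1 → ∃ g, φ g = π := by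
    intro π hπ
    obtain ⟨e, he, h⟩ := K.E_img π hπ
    obtain ⟨g, rfl⟩ := hE he
    exact ⟨g, h (hf g)⟩
  have hA : alternatingGroup (Fin 6) ≤ φ.range := by
    intro π hπ
    exact hφ π (Equiv.Perm.mem_alternatingGroup.1 hπ)
  -- injective on the root group
  have hinj : ∀ a : D, φ (up a) = 1 → a = 0 := by
    intro a ha
    by_contra hne
    have h3 := normal_top h2 φ.ker inferInstance hne (MonoidHom.mem_ker.2 ha)
    obtain ⟨g, hg⟩ := hφ c5 sign_c5
    rw [MonoidHom.mem_ker.1 (h3 g)] at hg
    exact c5_ne hg.symm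
  let u : Multiplicative D →* Equiv.Perm (Fin 6) :=
    { toFun := fun a => φ (up a.toAdd)
      map_one' := by
        change φ (up 0) = 1
        rw [up_zero, map_one]
      map_mul' := fun a b => by
        change φ (up (a.toAdd + b.toAdd)) = _
        rw [← up_add, map_mul] }
  have hu : Function.Injective u := by
    rw [injective_iff_map_eq_one]
    intro a ha
    exact hinj _ ha
  have hdvd : Nat.card D ∣ 720 := by
    have h3 := Subgroup.card_dvd_of_injective u hu
    have h4 : Nat.card (Equiv.Perm (Fin 6)) = 720 := by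
      rw [Nat.card_eq_fintype_card, Fintype.card_perm, Fintype.card_fin]
      rfl
    rw [h4] at h3
    exact h3
  -- odd prime power
  obtain ⟨p, n, hp, hn, hcard⟩ : ∃ p n : ℕ, p.Prime ∧ n ≠ 0 ∧ Nat.card D = p ^ n := by
    obtain ⟨p, hp⟩ := CharP.exists D
    obtain ⟨n, hn, h⟩ := FiniteField.card D p
    exact ⟨p, n, hn, n.2.ne', by rw [Nat.card_eq_fintype_card, h]⟩
  have hp2 : p ≠ 2 := by
    rintro rfl
    apply h2
    have h3 : ((Fintype.card D : ℕ) : D) = 0 := FiniteField.cast_card_eq_zero D
    rw [← Nat.card_eq_fintype_card, hcard] at h3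
    push_cast at h3
    exact pow_eq_zero_iff hn |>.1 h3
  have hrange : 360 ∣ Nat.card φ.range := by
    have h3 := Subgroup.card_dvd_of_le hA
    have h4 : Nat.card (alternatingGroup (Fin 6)) = 360 := by
      rw [nat_card_alternatingGroup]
      simp [Nat.factorial]
    rwa [h4] at h3
  have hSL : 360 ∣ Nat.card D * (Nat.card D ^ 2 - 1) := by
    have h3 : Nat.card φ.range ∣ Nat.card (SpecialLinearGroup (Fin 2) D) := Subgroup.card_range_dvd φ
    rw [S0276.card_sl_two (F := D) (Nat.card_eq_fintype_card).symm] at h3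
    exact hrange.trans h3
  have h45 : Nat.card D ∣ 45 := by
    have h3 : (Nat.card D).Coprime 16 := by
      rw [hcard]
      exact Nat.Coprime.pow_left n ((Nat.coprime_primes hp Nat.prime_two).2 hp2 |>.pow_right 4)
    exact h3.dvd_of_dvd_mul_left (m := 16) (by exact hdvd)
  have h5 : Nat.card D ∈ Nat.divisors 45 := by
    rw [Nat.mem_divisors]
    exact ⟨h45, by norm_num⟩
  have h6 : Nat.divisors 45 = {1, 3, 5, 9, 15, 45} := by decide +kernel
  rw [h6] at h5
  simp only [Finset.mem_insert, Finset.mem_singleton] at h5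
  rcases h5 with h5 | h5 | h5 | h5 | h5 | h5
  · exfalso
    rw [hcard] at h5
    exact hp.one_lt.ne' ((Nat.pow_eq_one.1 h5).resolve_right hn)
  · exfalso
    rw [h5] at hSL
    revert hSL
    decide
  · exfalso
    rw [h5] at hSL
    revert hSL
    decide
  · exact h5
  · exfalso
    rw [h5] at hSL
    revert hSL
    decide
  · exfalso
    have h7 : 3 ∣ p ^ n := by rw [← hcard, h5]; norm_num
    have h8 : 5 ∣ p ^ n := by rw [← hcard, h5]; norm_num
    have h9 := (Nat.prime_dvd_prime_iff_eq Nat.prime_three hp).1 (Nat.prime_three.dvd_of_dvd_pow h7)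
    have h10 := (Nat.prime_dvd_prime_iff_eq Nat.prime_five hp).1 (Nat.prime_five.dvd_of_dvd_pow h8)
    omega

/-! ### LEMMA Q -/

/-- the norm form `a² + a b t + b²`, `t² ≠ 4`, represents everything -/
theorem exists_norm {K : Type*} [Field K] [Finite K] (h2 : (2 : K) ≠ 0) {t : K} (ht : t ^ 2 ≠ 4) (e : K) :
    ∃ a b : K, a ^ 2 + a * b * t + b ^ 2 = e := by
  classical
  have : Fintype K := Fintype.ofFinite K
  have hodd : Fintype.card K % 2 = 1 := FiniteField.odd_card_of_char_ne_two (by
    intro h
    apply h2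
    have := ringChar.Nat.cast_ringChar (R := K)
    rw [h] at this
    exact_mod_cast this)
  have h4 : (4 : K) ≠ 0 := by
    have : (4 : K) = 2 * 2 := by norm_num
    rw [this]
    exact mul_ne_zero h2 h2
  have hd : (1 - t ^ 2 / 4 : K) ≠ 0 := by
    intro h
    apply ht
    field_simp at h
    linear_combination -h
  obtain ⟨u, b, h⟩ := FiniteField.exists_root_sum_quadratic (R := K)
    (f := Polynomial.X ^ 2 - Polynomial.C e) (g := Polynomial.C (1 - t ^ 2 / 4) * Polynomial.X ^ 2)
    (by
      rw [Polynomial.degree_X_pow_sub_C (by norm_num)]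
      rfl)
    (by
      rw [Polynomial.degree_C_mul_X_pow _ hd]
      rfl) hodd
  refine ⟨u - b * t / 2, b, ?_⟩
  simp only [Polynomial.eval_sub, Polynomial.eval_pow, Polynomial.eval_X, Polynomial.eval_C, Polynomial.eval_mul] at h
  field_simp
  field_simp at h
  linear_combination h

/-- **LEMMA Q**, abstract form: `C` a central prime `K`-algebra with an anti-involution `a ↦ a*` such that
`a + a*`, `a a* ∈ K`. -/
theorem lemQstar {K : Type*} [Field K] [Finite K] (h2 : (2 : K) ≠ 0) {C : Type*} [Ring C] [Algebra K C] [Nontrivial C]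
    (st : C → C) (hadd : ∀ a b, st (a + b) = st a + st b) (hmul : ∀ a b, st (a * b) = st b * st a)
    (hst : ∀ a, st (st a) = a) (hsc : ∀ (k : K) (a : C), st (k • a) = k • st a)
    (htr : ∀ a, ∃ k : K, a + st a = k • (1 : C)) (hnm : ∀ a, ∃ k : K, a * st a = k • (1 : C))
    (hcen : ∀ c : C, (∀ h, c * h = h * c) → ∃ k : K, c = k • (1 : C))
    (hprime : ∀ a b : C, (∀ c, a * c * b = 0) → a = 0 ∨ b = 0)
    {x y : C} {t : K} (hx : x * st x = 1) (hy : y * st y = 1) (htx : x + st x = t • (1 : C))
    (hty : y + st y = t • (1 : C)) (ht : t ^ 2 ≠ 4) : ∃ g : C, g * st g = 1 ∧ g * x = y * g := by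
  have hst1 : st 1 = 1 := by
    have h := hmul (st 1) 1
    rw [hst, mul_one, hst] at h
    exact h.symm
  have hcom : ∀ a, st a * a = a * st a := by
    intro a
    obtain ⟨k, hk⟩ := htr a
    have h : st a = k • (1 : C) - a := eq_sub_of_add_eq' hk
    rw [h, sub_mul, mul_sub, smul_mul_assoc, mul_smul_comm, one_mul, mul_one]
  have hyy : y * y = t • y - 1 := by
    have h : st y = t • (1 : C) - y := eq_sub_of_add_eq' hty
    rw [h, mul_sub, mul_smul_comm, mul_one] at hy
    rw [← hy]
    abel
  have hxs : st x * x = 1 := by rw [hcom, hx]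
  -- `g_h = y h - h x*`
  have hg : ∀ h, (y * h - h * st x) * x = y * (y * h - h * st x) := by
    intro h
    have e : st x = t • (1 : C) - x := eq_sub_of_add_eq' htx
    have h1 : (y * h - h * st x) * x = y * h * x - h := by
      rw [sub_mul, mul_assoc h, hxs, mul_one]
    have h3 : y * (y * h - h * st x) = y * h * x - h := by
      rw [mul_sub, ← mul_assoc y y, hyy, sub_mul, smul_mul_assoc, one_mul, e, mul_sub, mul_smul_comm, mul_one, mul_sub,
        mul_smul_comm, mul_assoc y h x]
      abel
    rw [h1, h3]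
  -- some `g_h` is invertible
  have hex : ∃ g : C, g * x = y * g ∧ ∃ k : K, k ≠ 0 ∧ g * st g = k • (1 : C) := by
    by_contra hne
    push Not at hne
    have hN : ∀ g, g * x = y * g → g * st g = 0 := by
      intro g hg'
      obtain ⟨k, hk⟩ := hnm g
      by_cases hk0 : k = 0
      · rw [hk, hk0, zero_smul]
      · exact absurd hk (hne g hg' k hk0)
    -- `g g'* = 0`
    have hgg : ∀ g g', g * x = y * g → g' * x = y * g' → g * st g' = 0 := by
      intro g g' h h'
      set c := g * st g' with hc
      have hc1 : st c = -c := by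
        have h3 := hN (g + g') (by rw [add_mul, mul_add, h, h'])
        rw [hadd, add_mul, mul_add, mul_add, hN g h, hN g' h', zero_add, add_zero] at h3
        rw [hc, hmul, hst]
        exact eq_neg_of_add_eq_zero_right h3
      have hc2 : c * c = 0 := by
        have h3 : c * st c = 0 := by
          rw [hc, hmul, hst, mul_assoc, ← mul_assoc (st g'), hcom g', hN g' h', zero_mul, mul_zero]
        rw [hc1, mul_neg, neg_eq_zero] at h3
        exact h3
      have hcy : c * y = y * c := by
        have h3 : st x * st g' = st g' * st y := by rw [← hmul, h', hmul]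
        have e : st x = t • (1 : C) - x := eq_sub_of_add_eq' htx
        have e' : st y = t • (1 : C) - y := eq_sub_of_add_eq' hty
        rw [e, e', sub_mul, mul_sub, smul_mul_assoc, mul_smul_comm, one_mul, mul_one] at h3
        have h4 : x * st g' = st g' * y := sub_right_injective h3
        rw [hc, mul_assoc, ← h4, ← mul_assoc, h, mul_assoc]
      have hcy' : c * st y = st y * c := by
        have e' : st y = t • (1 : C) - y := eq_sub_of_add_eq' hty
        rw [e', mul_sub, sub_mul, hcy, mul_smul_comm, smul_mul_assoc, mul_one, one_mul]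
      obtain ⟨k, hk⟩ := htr (c * y)
      rw [hmul, hc1, mul_neg, ← hcy', ← sub_eq_add_neg, ← mul_sub] at hk
      have h5 : k • c = 0 := by
        have h6 : c * (c * (y - st y)) = c * (k • (1 : C)) := by rw [hk]
        rw [← mul_assoc, hc2, zero_mul, mul_smul_comm, mul_one] at h6
        exact h6.symm
      have hd2 : (y - st y) * (y - st y) = (t ^ 2 - 4) • (1 : C) := by
        have e' : st y = t • (1 : C) - y := eq_sub_of_add_eq' hty
        have h7 : (y - st y) * (y - st y) = (4 : K) • (y * y) - (4 * t) • y + (t ^ 2) • (1 : C) := by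
          rw [e']
          simp only [sub_mul, mul_sub, smul_mul_assoc, mul_smul_comm, one_mul, mul_one, smul_sub, smul_smul]
          module
        rw [h7, hyy]
        module
      have ht4 : t ^ 2 - 4 ≠ 0 := sub_ne_zero.2 ht
      rcases smul_eq_zero.1 h5 with h6 | h6
      · rw [h6, zero_smul] at hk
        have h8 : c * ((y - st y) * (y - st y)) = 0 := by rw [← mul_assoc, hk, zero_mul]
        rw [hd2, mul_smul_comm, mul_one] at h8
        exact (smul_eq_zero.1 h8).resolve_left ht4
      · exact h6
    have hycen : ∀ h, y * h = h * y := by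
      by_cases hall : ∀ h, y * h - h * st x = 0
      · intro h
        have h3 := hall 1
        rw [mul_one, one_mul, sub_eq_zero] at h3
        have h4 := hall h
        rw [← h3, sub_eq_zero] at h4
        exact h4
      · push Not at hall
        obtain ⟨k, hk⟩ := hall
        set a := st (y * k - k * st x) with ha
        have ha0 : a ≠ 0 := by
          intro h0
          apply hk
          rw [← hst (y * k - k * st x), ← ha, h0]
          have h3 := hadd 0 0
          rw [add_zero] at h3
          exact left_eq_add.1 h3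
        have h3 : ∀ h, y * h * a = h * st x * a := by
          intro h
          have h4 := hgg _ _ (hg h) (hg k)
          rw [← ha, sub_mul, sub_eq_zero] at h4
          exact h4
        have h5 : y * a = st x * a := by
          have h6 := h3 1
          rwa [mul_one, one_mul] at h6
        intro h
        have h7 : ∀ h', (y * h - h * y) * h' * a = 0 := by
          intro h'
          rw [sub_mul, sub_mul, sub_eq_zero]
          calc y * h * h' * a = y * (h * h') * a := by rw [mul_assoc y h h']
            _ = h * h' * st x * a := h3 _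
            _ = h * (h' * st x * a) := by simp only [mul_assoc]
            _ = h * (y * h' * a) := by rw [← h3]
            _ = h * y * h' * a := by simp only [mul_assoc]
        exact sub_eq_zero.1 ((hprime _ _ h7).resolve_right ha0)
    obtain ⟨k, hk⟩ := hcen y hycen
    have h3 : st y = k • (1 : C) := by rw [hk, hsc, hst1]
    rw [hk, hsc, hst1, ← add_smul] at hty
    rw [hk, hsc, hst1, smul_mul_smul_comm, one_mul] at hy
    have h4 : (k + k - t) • (1 : C) = 0 := by rw [sub_smul, hty, sub_self]
    have h5 : (k * k - 1) • (1 : C) = 0 := by rw [sub_smul, hy, one_smul, sub_self]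
    have h6 := (smul_eq_zero.1 h4).resolve_right one_ne_zero
    have h7 := (smul_eq_zero.1 h5).resolve_right one_ne_zero
    apply ht
    linear_combination (-(k + k) - t) * h6 + 4 * h7
  obtain ⟨g, hgx, k, hk0, hk⟩ := hex
  obtain ⟨a, c, hac⟩ := exists_norm h2 ht k⁻¹
  have hN : (a • (1 : C) + c • x) * st (a • (1 : C) + c • x) = k⁻¹ • (1 : C) := by
    rw [hadd, hsc, hsc, hst1, ← hac]
    have e : st x = t • (1 : C) - x := eq_sub_of_add_eq' htx
    have hxx : x * x = t • x - 1 := by
      rw [e, mul_sub, mul_smul_comm, mul_one] at hx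
      rw [← hx]
      abel
    rw [add_mul, mul_add, mul_add, smul_mul_smul_comm, smul_mul_smul_comm, smul_mul_smul_comm, smul_mul_smul_comm, hx,
      one_mul, one_mul, mul_one, e]
    module
  refine ⟨g * (a • (1 : C) + c • x), ?_, ?_⟩
  · rw [hmul, mul_assoc, ← mul_assoc (a • (1 : C) + c • x), hN, smul_mul_assoc, one_mul, mul_smul_comm, hk, smul_smul,
      inv_mul_cancel₀ hk0, one_smul]
  · have h3 : (a • (1 : C) + c • x) * x = x * (a • (1 : C) + c • x) := by
      rw [add_mul, mul_add, smul_mul_assoc, smul_mul_assoc, mul_smul_comm, mul_smul_comm, one_mul, mul_one]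
    rw [mul_assoc, h3, ← mul_assoc, hgx, mul_assoc]

/-- **LEMMA Q** : elements of `SL₂(K)` of the same trace `t`, `t² ≠ 4`, are conjugate. -/
theorem lemQ {K : Type*} [Field K] [Finite K] (h2 : (2 : K) ≠ 0) {x y : SpecialLinearGroup (Fin 2) K} {t : K}
    (hx : Matrix.trace x.1 = t) (hy : Matrix.trace y.1 = t) (ht : t ^ 2 ≠ 4) :
    ∃ g : SpecialLinearGroup (Fin 2) K, g * x = y * g := by
  have key : ∀ a : Matrix (Fin 2) (Fin 2) K, a + a.adjugate = Matrix.trace a • (1 : Matrix (Fin 2) (Fin 2) K) := by
    intro a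
    rw [Matrix.adjugate_fin_two, Matrix.trace_fin_two]
    ext i j
    fin_cases i <;> fin_cases j <;> simp [add_comm]
  obtain ⟨g, hg, hgx⟩ := lemQstar (K := K) h2 (C := Matrix (Fin 2) (Fin 2) K) Matrix.adjugate
    (fun a b => by
      rw [Matrix.adjugate_fin_two, Matrix.adjugate_fin_two, Matrix.adjugate_fin_two]
      ext i j
      fin_cases i <;> fin_cases j <;> simp <;> ring)
    (fun a b => Matrix.adjugate_mul_distrib a b)
    (fun a => by
      rw [Matrix.adjugate_fin_two, Matrix.adjugate_fin_two]
      ext i j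
      fin_cases i <;> fin_cases j <;> simp)
    (fun k a => by
      rw [Matrix.adjugate_fin_two, Matrix.adjugate_fin_two]
      ext i j
      fin_cases i <;> fin_cases j <;> simp)
    (fun a => ⟨_, key a⟩) (fun a => ⟨_, Matrix.mul_adjugate a⟩)
    (fun c hc => by
      refine ⟨c 0 0, ?_⟩
      have h3 := hc (!![0, 1; 0, 0])
      have h4 := hc (!![0, 0; 1, 0])
      have e1 := congrFun (congrFun h3 0) 1
      have e2 := congrFun (congrFun h3 0) 0
      have e3 := congrFun (congrFun h4 0) 0
      simp [Matrix.mul_apply, Fin.sum_univ_two] at e1 e2 e3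
      replace e2 := e2.symm
      ext i j
      fin_cases i <;> fin_cases j <;> simp [e1, e2, e3])
    (fun a c hac => by
      by_contra hne
      push Not at hne
      obtain ⟨i, j, hij⟩ : ∃ i j, a i j ≠ 0 := by
        by_contra h
        push Not at h
        exact hne.1 (Matrix.ext h)
      obtain ⟨k, l, hkl⟩ : ∃ i j, c i j ≠ 0 := by
        by_contra h
        push Not at h
        exact hne.2 (Matrix.ext h)
      have h3 := congrFun (congrFun (hac (Matrix.single j k 1)) i) l
      rw [Matrix.mul_apply] at h3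
      have h4 : ∀ m, (a * Matrix.single j k (1 : K)) i m = if m = k then a i j else 0 := by
        intro m
        by_cases hm : m = k
        · subst hm; simp
        · rw [if_neg hm]
          exact Matrix.mul_single_apply_of_ne (1 : K) j k i m hm a
      simp only [h4] at h3
      simp at h3
      exact h3.elim hij hkl)
    (x := x.1) (y := y.1) (t := t)
    (by rw [Matrix.mul_adjugate, x.2, one_smul]) (by rw [Matrix.mul_adjugate, y.2, one_smul])
    (by rw [key, hx]) (by rw [key, hy]) ht
  rw [Matrix.mul_adjugate] at hg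
  have hdet : g.det = 1 := by
    have h3 := congrFun (congrFun hg 0) 0
    simpa using h3
  exact ⟨⟨g, hdet⟩, Subtype.ext hgx⟩

end Cfsg.Agent.H99.C3
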